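import Cfsg.Agent.Lib.Helper12.HHB.Defs

set_option autoImplicit false

/-! Ladder HHB (Hall-Higman Theorem B), rung IDX. -/

namespace Cfsg.Agent.Lib.Helper68.HHB

open Module Cfsg.Agent.Lib.Helper12.HHB

variable {K : Type*} [Field K] {V : Type*} [AddCommGroup V] [Module K V]

theorem idx_sub_one_pow {p : ℕ} [Fact p.Prime] [CharP K p] (T : Module.End K V) (m : ℕ) :
    (T - 1) ^ p ^ m = T ^ p ^ m - 1 := by
  have h : ((Polynomial.X : Polynomial K) - 1) ^ p ^ m = Polynomial.X ^ p ^ m - 1 := by
    rw [sub_pow_char_pow, one_pow]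
  have := congrArg (Polynomial.aeval T) h
  simpa using this

theorem exists_isIdx {p : ℕ} [Fact p.Prime] [CharP K p] (X : (Module.End K V)ˣ) (m : ℕ) (hX : X ^ p ^ m = 1) :
    ∃ s, IsIdx ((X : Module.End K V) - 1) s ∧ s ≤ p ^ m := by
  classical
  have h0 : ((X : Module.End K V) - 1) ^ p ^ m = 0 := by
    rw [idx_sub_one_pow, ← Units.val_pow_eq_pow_val, hX, Units.val_one, sub_self]
  have hex : ∃ s, ((X : Module.End K V) - 1) ^ s = 0 := ⟨_, h0⟩
  exact ⟨Nat.find hex, ⟨Nat.find_spec hex, fun k hk => Nat.find_min hex hk⟩, Nat.find_min' hex h0⟩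

theorem isIdx_res_le (W : Submodule K V) (X : stab W) (s s' : ℕ)
    (hs : IsIdx (((X : (Module.End K V)ˣ) : Module.End K V) - 1) s)
    (hs' : IsIdx (((resHom W X : (Module.End K W)ˣ) : Module.End K W) - 1) s') : s' ≤ s := by
  by_contra hlt
  push Not at hlt
  apply hs'.2 s hlt
  have key : ∀ (k : ℕ) (w : W), ((((((resHom W X : (Module.End K W)ˣ) : Module.End K W) - 1) ^ k) w : W) : V)
      = ((((X : (Module.End K V)ˣ) : Module.End K V) - 1) ^ k) w := by
    intro k
    induction k with
    | zero => intro w; simp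
    | succ k ih =>
      intro w
      rw [pow_succ, pow_succ, Module.End.mul_apply, Module.End.mul_apply, ih]
      congr 1
  ext w
  rw [key, hs.1]
  simp

theorem isIdx_quot_le (W : Submodule K V) (X : stab W) (s s' : ℕ)
    (hs : IsIdx (((X : (Module.End K V)ˣ) : Module.End K V) - 1) s)
    (hs' : IsIdx (((quotHom W X : (Module.End K (V ⧸ W))ˣ) : Module.End K (V ⧸ W)) - 1) s') : s' ≤ s := by
  by_contra hlt
  push Not at hlt
  apply hs'.2 s hlt
  have key : ∀ (k : ℕ) (v : V), ((((quotHom W X : (Module.End K (V ⧸ W))ˣ) : Module.End K (V ⧸ W)) - 1) ^ k)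
      (Submodule.Quotient.mk v) = Submodule.Quotient.mk (((((X : (Module.End K V)ˣ) : Module.End K V) - 1) ^ k) v) := by
    intro k
    induction k with
    | zero => intro v; simp
    | succ k ih =>
      intro v
      rw [pow_succ, pow_succ, Module.End.mul_apply, Module.End.mul_apply, ← ih]
      congr 1
  ext v
  have := key s v
  rw [hs.1] at this
  simpa using this

end Cfsg.Agent.Lib.Helper68.HHB
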