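import Cfsg.Agent.Lib.Helper12.HHB.QDefs
import Cfsg.Agent.Lib.Helper63.PGroupFixed

set_option autoImplicit false

/-! Ladder HH3 (S3789), rung FIXQ. -/

namespace Cfsg.Agent.Lib.Helper68.HHB

open Module Cfsg.Agent.Lib.Helper12.HHB

variable {K : Type*} [Field K] {V : Type*} [AddCommGroup V] [Module K V]

/-- conjugation by a unit on `End K V`, as a linear map. -/
def fixqConj (d : (Module.End K V)ˣ) : Module.End K V →ₗ[K] Module.End K V :=
  (LinearMap.mulLeft K (d : Module.End K V)).comp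
    (LinearMap.mulRight K ((d⁻¹ : (Module.End K V)ˣ) : Module.End K V))

theorem fixqConj_apply (d : (Module.End K V)ˣ) (T : Module.End K V) :
    fixqConj d T = (d : Module.End K V) * (T * ((d⁻¹ : (Module.End K V)ˣ) : Module.End K V)) := rfl

variable (K V) in
/-- the scalars. -/
def fixqS : Submodule K (Module.End K V) := Submodule.span K {1}

theorem fixq_mem {T : Module.End K V} : T ∈ fixqS K V ↔ ∃ a : K, a • (1 : Module.End K V) = T :=
  Submodule.mem_span_singleton

theorem fixq_le (d : (Module.End K V)ˣ) : fixqS K V ≤ (fixqS K V).comap (fixqConj d) := by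
  intro T hT
  obtain ⟨a, rfl⟩ := fixq_mem.1 hT
  rw [Submodule.mem_comap, fixqConj_apply]
  refine fixq_mem.2 ⟨a, ?_⟩
  rw [smul_mul_assoc, one_mul, mul_smul_comm, Units.mul_inv]

/-- the action of `D` on `End K V` modulo scalars. -/
def fixqRep (D : Subgroup (Module.End K V)ˣ) : Representation K D (Module.End K V ⧸ fixqS K V) where
  toFun d := (fixqS K V).mapQ (fixqS K V) (fixqConj (d : (Module.End K V)ˣ)) (fixq_le _)
  map_one' := by
    apply LinearMap.ext
    intro x
    obtain ⟨T, rfl⟩ := Submodule.mkQ_surjective _ x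
    rw [Submodule.mkQ_apply, Submodule.mapQ_apply, fixqConj_apply]
    simp
  map_mul' a b := by
    apply LinearMap.ext
    intro x
    obtain ⟨T, rfl⟩ := Submodule.mkQ_surjective _ x
    rw [Module.End.mul_apply, Submodule.mkQ_apply, Submodule.mapQ_apply, Submodule.mapQ_apply,
      Submodule.mapQ_apply, fixqConj_apply, fixqConj_apply, fixqConj_apply]
    simp [mul_assoc]

theorem fixqRep_mk (D : Subgroup (Module.End K V)ˣ) (d : D) (T : Module.End K V) :
    fixqRep D d (Submodule.Quotient.mk T) = Submodule.Quotient.mk (fixqConj (d : (Module.End K V)ˣ) T) := rfl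

/-- the commutant. -/
def fixqE (Q : Subgroup (Module.End K V)ˣ) : Submodule K (Module.End K V) where
  carrier := {T | ∀ g ∈ Q, T * ((g : (Module.End K V)ˣ) : Module.End K V) = (g : Module.End K V) * T}
  add_mem' := by
    intro a b ha hb g hg
    rw [add_mul, mul_add, ha g hg, hb g hg]
  zero_mem' := by
    intro g _
    simp
  smul_mem' := by
    intro c a ha g hg
    rw [smul_mul_assoc, mul_smul_comm, ha g hg]

theorem exists_shift {p : ℕ} [Fact p.Prime] [CharP K p]
    (Q D : Subgroup (Module.End K V)ˣ) [Finite D] (hD : IsPGroup p D)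
    (hDQ : ∀ d ∈ D, ∀ g ∈ Q, d * g * d⁻¹ ∈ Q) (hns : ¬ ScalarComm Q) :
    ∃ T : Module.End K V,
      (∀ g ∈ Q, T * ((g : (Module.End K V)ˣ) : Module.End K V) = (g : Module.End K V) * T) ∧
      (¬ ∃ a : K, T = a • 1) ∧
      ∀ d ∈ D, ∃ χ : K, ((d : (Module.End K V)ˣ) : Module.End K V) * T = (T + χ • 1) * (d : Module.End K V) := by
  have hinv : ∀ g : D, ∀ v ∈ (fixqE Q).map (fixqS K V).mkQ, fixqRep D g v ∈ (fixqE Q).map (fixqS K V).mkQ := by
    rintro ⟨d, hd⟩ _ ⟨T, hT, rfl⟩
    refine ⟨fixqConj d T, ?_, rfl⟩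
    intro g hg
    have h1 : d⁻¹ * g * d ∈ Q := by
      have := hDQ d⁻¹ (inv_mem hd) g hg
      rwa [inv_inv] at this
    have h2 := hT _ h1
    rw [fixqConj_apply]
    have e1 : ((d⁻¹ : (Module.End K V)ˣ) : Module.End K V) * (g : Module.End K V)
        = (((d⁻¹ * g * d : (Module.End K V)ˣ)) : Module.End K V) * ((d⁻¹ : (Module.End K V)ˣ) : Module.End K V) := by
      rw [← Units.val_mul, ← Units.val_mul]
      congr 1
      group
    have e2 : (d : Module.End K V) * (((d⁻¹ * g * d : (Module.End K V)ˣ)) : Module.End K V)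
        = (g : Module.End K V) * (d : Module.End K V) := by
      rw [← Units.val_mul, ← Units.val_mul]
      congr 1
      group
    calc (d : Module.End K V) * (T * ((d⁻¹ : (Module.End K V)ˣ) : Module.End K V)) * (g : Module.End K V)
        = (d : Module.End K V) * (T * (((d⁻¹ : (Module.End K V)ˣ) : Module.End K V) * (g : Module.End K V))) := by
          simp only [mul_assoc]
      _ = (d : Module.End K V) * ((T * (((d⁻¹ * g * d : (Module.End K V)ˣ)) : Module.End K V))
            * ((d⁻¹ : (Module.End K V)ˣ) : Module.End K V)) := by rw [e1]; simp only [mul_assoc]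
      _ = ((d : Module.End K V) * (((d⁻¹ * g * d : (Module.End K V)ˣ)) : Module.End K V)) * (T
            * ((d⁻¹ : (Module.End K V)ˣ) : Module.End K V)) := by rw [h2]; simp only [mul_assoc]
      _ = (g : Module.End K V) * ((d : Module.End K V) * (T * ((d⁻¹ : (Module.End K V)ˣ) : Module.End K V))) := by
          rw [e2]; simp only [mul_assoc]
  have hW : (fixqE Q).map (fixqS K V).mkQ ≠ ⊥ := by
    intro h
    apply hns
    intro T hT
    have h1 : (fixqS K V).mkQ T ∈ (fixqE Q).map (fixqS K V).mkQ := ⟨T, hT, rfl⟩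
    rw [h, Submodule.mem_bot, Submodule.mkQ_apply, Submodule.Quotient.mk_eq_zero] at h1
    obtain ⟨a, ha⟩ := fixq_mem.1 h1
    exact ⟨a, ha.symm⟩
  obtain ⟨v, ⟨T, hT, rfl⟩, hv0, hfix⟩ :=
    Cfsg.Agent.Lib.Helper63.exists_fixed_vector hD (fixqRep D) _ hinv hW
  refine ⟨T, hT, ?_, ?_⟩
  · rintro ⟨a, ha⟩
    apply hv0
    rw [Submodule.mkQ_apply, Submodule.Quotient.mk_eq_zero]
    exact fixq_mem.2 ⟨a, ha.symm⟩
  · intro d hd
    have h1 := hfix ⟨d, hd⟩
    rw [Submodule.mkQ_apply, fixqRep_mk, Submodule.Quotient.eq] at h1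
    obtain ⟨χ, hχ⟩ := fixq_mem.1 h1
    refine ⟨χ, ?_⟩
    rw [hχ, fixqConj_apply]
    simp [mul_assoc]

end Cfsg.Agent.Lib.Helper68.HHB
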