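import Cfsg.Agent.Lib.Helper12.HHB.QDefs
import Cfsg.Agent.Lib.Helper68.HH3FIXQ

set_option autoImplicit false

/-! Ladder HH3 (S3789), rung TRI. -/

namespace Cfsg.Agent.Lib.Helper68.HHB

open Module Cfsg.Agent.Lib.Helper12.HHB

variable {K : Type*} [Field K] {V : Type*} [AddCommGroup V] [Module K V]

/-- `x T x⁻¹ = T + χ`. -/
def TriSh (T : Module.End K V) (x : (Module.End K V)ˣ) (χ : K) : Prop :=
  (x : Module.End K V) * T = (T + χ • 1) * (x : Module.End K V)

theorem TriSh.mul {T : Module.End K V} {x y : (Module.End K V)ˣ} {χ ψ : K} (hx : TriSh T x χ)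
    (hy : TriSh T y ψ) : TriSh T (x * y) (χ + ψ) := by
  unfold TriSh at *
  calc ((x * y : (Module.End K V)ˣ) : Module.End K V) * T
      = (x : Module.End K V) * ((y : Module.End K V) * T) := by rw [Units.val_mul, mul_assoc]
    _ = (x : Module.End K V) * T * (y : Module.End K V) + ψ • ((x : Module.End K V) * (y : Module.End K V)) := by
        rw [hy, add_mul, mul_add, smul_mul_assoc, one_mul, mul_smul_comm, mul_assoc]
    _ = (T + (χ + ψ) • 1) * ((x * y : (Module.End K V)ˣ) : Module.End K V) := by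
        rw [hx, Units.val_mul]
        simp only [add_mul, smul_mul_assoc, one_mul, add_smul, mul_assoc]
        abel

theorem TriSh.inv {T : Module.End K V} {x : (Module.End K V)ˣ} {χ : K} (hx : TriSh T x χ) :
    TriSh T x⁻¹ (-χ) := by
  unfold TriSh at *
  have h1 : T * ((x⁻¹ : (Module.End K V)ˣ) : Module.End K V)
      = ((x⁻¹ : (Module.End K V)ˣ) : Module.End K V) * (T + χ • 1) := by
    calc T * ((x⁻¹ : (Module.End K V)ˣ) : Module.End K V)
        = ((x⁻¹ : (Module.End K V)ˣ) : Module.End K V) * ((x : Module.End K V) * T)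
            * ((x⁻¹ : (Module.End K V)ˣ) : Module.End K V) := by
          rw [← mul_assoc, Units.inv_mul, one_mul]
      _ = ((x⁻¹ : (Module.End K V)ˣ) : Module.End K V) * (T + χ • 1) := by
          rw [hx, mul_assoc, mul_assoc, Units.mul_inv, mul_one]
  rw [add_mul, h1, mul_add, neg_smul, neg_mul, smul_mul_assoc, one_mul, mul_smul_comm, mul_one]
  abel

theorem TriSh.apply {T : Module.End K V} {x : (Module.End K V)ˣ} {χ : K} (hx : TriSh T x χ) {μ : K} {w : V}
    (hw : T w = μ • w) : T ((x : Module.End K V) w) = (μ - χ) • (x : Module.End K V) w := by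
  have h1 := congrArg (fun f : Module.End K V => f w) hx
  simp only [Module.End.mul_apply, LinearMap.add_apply, LinearMap.smul_apply, Module.End.one_apply] at h1
  rw [hw, map_smul] at h1
  rw [sub_smul, h1]
  abel

theorem tri_stab {T : Module.End K V} {x : (Module.End K V)ˣ} {χ : K} (hx : TriSh T x χ) :
    x ∈ stab (⨆ μ : K, Module.End.eigenspace T μ) := by
  have key : ∀ (y : (Module.End K V)ˣ) (ψ : K), TriSh T y ψ →
      ∀ w ∈ (⨆ μ : K, Module.End.eigenspace T μ), (y : Module.End K V) w ∈ (⨆ μ : K, Module.End.eigenspace T μ) := by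
    intro y ψ hy
    have h1 : (⨆ μ : K, Module.End.eigenspace T μ)
        ≤ (⨆ μ : K, Module.End.eigenspace T μ).comap (y : Module.End K V) := by
      refine iSup_le fun μ w hw => ?_
      rw [Submodule.mem_comap]
      exact le_iSup (fun μ : K => Module.End.eigenspace T μ) (μ - ψ)
        (Module.End.mem_eigenspace_iff.2 (hy.apply (Module.End.mem_eigenspace_iff.1 hw)))
    exact fun w hw => h1 hw
  exact mem_stab.2 ⟨key x χ hx, key x⁻¹ (-χ) hx.inv⟩

theorem tri_stab0 {T : Module.End K V} {x : (Module.End K V)ˣ} (hx : TriSh T x 0) (μ : K) :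
    x ∈ stab (Module.End.eigenspace T μ) := by
  have key : ∀ (y : (Module.End K V)ˣ), TriSh T y 0 →
      ∀ w ∈ Module.End.eigenspace T μ, (y : Module.End K V) w ∈ Module.End.eigenspace T μ := by
    intro y hy w hw
    have := hy.apply (Module.End.mem_eigenspace_iff.1 hw)
    rw [sub_zero] at this
    exact Module.End.mem_eigenspace_iff.2 this
  refine mem_stab.2 ⟨key x hx, key x⁻¹ ?_⟩
  have := hx.inv
  rwa [neg_zero] at this

/-- three eigenvectors for `μ, μ - a, μ - 2a` with zero sum vanish. -/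
theorem tri_three {T : Module.End K V} {μ a : K} (ha : a ≠ 0) (h2 : (2 : K) ≠ 0) {x₀ x₁ x₂ : V}
    (h₀ : T x₀ = μ • x₀) (h₁ : T x₁ = (μ - a) • x₁) (h₂ : T x₂ = (μ - a - a) • x₂)
    (hs : x₀ + x₁ + x₂ = 0) : x₀ = 0 := by
  have e1 : T (x₀ + x₁ + x₂) = 0 := by rw [hs, map_zero]
  rw [map_add, map_add, h₀, h₁, h₂] at e1
  have e2 : a • (x₁ + (2 : K) • x₂) = 0 := by
    have : a • (x₁ + (2 : K) • x₂) = μ • (x₀ + x₁ + x₂) - (μ • x₀ + (μ - a) • x₁ + (μ - a - a) • x₂) := by
      simp only [smul_add, sub_smul, two_smul]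
      abel
    rw [this, hs, e1, smul_zero, sub_zero]
  have e3 : x₁ + (2 : K) • x₂ = 0 := (smul_eq_zero.1 e2).resolve_left ha
  have e4 : T (x₁ + (2 : K) • x₂) = 0 := by rw [e3, map_zero]
  rw [map_add, map_smul, h₁, h₂] at e4
  have e5 : (2 * a) • x₂ = 0 := by
    have : (2 * a) • x₂ = (μ - a) • (x₁ + (2 : K) • x₂) - ((μ - a) • x₁ + (2 : K) • (μ - a - a) • x₂) := by
      simp only [smul_add, sub_smul, smul_smul, two_smul, two_mul, add_smul, smul_sub]
      abel
    rw [this, e3, e4, smul_zero, sub_zero]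
  have e6 : x₂ = 0 := (smul_eq_zero.1 e5).resolve_left (mul_ne_zero h2 ha)
  rw [e6, smul_zero, add_zero] at e3
  rw [e3, e6, add_zero, add_zero] at hs
  exact hs

theorem scalarComm_of_irred {p : ℕ} [Fact p.Prime] [CharP K p] [IsAlgClosed K] [FiniteDimensional K V] [Nontrivial V]
    (hp2 : p ≠ 2) (Q D : Subgroup (Module.End K V)ˣ) [Finite D] (hD : IsPGroup p D)
    (hDQ : ∀ d ∈ D, ∀ g ∈ Q, d * g * d⁻¹ ∈ Q) (b b' c : (Module.End K V)ˣ) (hb : b ∈ D) (hb' : b' ∈ D)
    (hc : c = b * b' * b⁻¹ * b'⁻¹) (hc1 : c ≠ 1)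
    (h1 : ∀ d ∈ D, ((d : Module.End K V) - 1) * ((d : Module.End K V) - 1) * ((c : Module.End K V) - 1) = 0)
    (hirr : ∀ W : Submodule K V, Q ≤ stab W → D ≤ stab W → W = ⊥ ∨ W = ⊤) : ScalarComm Q := by
  by_contra hns
  obtain ⟨T, hTQ, hTs, hTD⟩ := exists_shift Q D hD hDQ hns
  have hQsh : ∀ g ∈ Q, TriSh T g 0 := by
    intro g hg
    unfold TriSh
    rw [zero_smul, add_zero]
    exact (hTQ g hg).symm
  have hDsh : ∀ d ∈ D, ∃ χ : K, TriSh T d χ := hTD
  obtain ⟨μ₀, hμ₀⟩ := Module.End.exists_eigenvalue T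
  have h2K : (2 : K) ≠ 0 := by
    intro h
    have h3 : ((2 : ℕ) : K) = 0 := by exact_mod_cast h
    rw [CharP.cast_eq_zero_iff K p] at h3
    exact hp2 ((Nat.prime_dvd_prime_iff_eq Fact.out Nat.prime_two).1 h3)
  by_cases hall : ∀ d ∈ D, TriSh T d 0
  · rcases hirr (Module.End.eigenspace T μ₀) (fun g hg => tri_stab0 (hQsh g hg) μ₀)
      (fun d hd => tri_stab0 (hall d hd) μ₀) with h | h
    · exact hμ₀ h
    · apply hTs
      refine ⟨μ₀, ?_⟩
      apply LinearMap.ext
      intro w
      have hw : w ∈ Module.End.eigenspace T μ₀ := h ▸ Submodule.mem_top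
      rw [Module.End.mem_eigenspace_iff.1 hw]
      rfl
  · push Not at hall
    obtain ⟨u, hu, hu0⟩ := hall
    obtain ⟨a, hua⟩ := hDsh u hu
    have ha : a ≠ 0 := by
      rintro rfl
      exact hu0 hua
    have hU : (⨆ μ : K, Module.End.eigenspace T μ) = ⊤ := by
      rcases hirr (⨆ μ : K, Module.End.eigenspace T μ) (fun g hg => tri_stab (hQsh g hg))
        (fun d hd => by obtain ⟨χ, hχ⟩ := hDsh d hd; exact tri_stab hχ) with h | h
      · exfalso
        apply hμ₀
        rw [eq_bot_iff, ← h]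
        exact le_iSup (fun μ : K => Module.End.eigenspace T μ) μ₀
      · exact h
    have hcsh : TriSh T c 0 := by
      obtain ⟨χ, hχ⟩ := hDsh b hb
      obtain ⟨ψ, hψ⟩ := hDsh b' hb'
      have := ((hχ.mul hψ).mul hχ.inv).mul hψ.inv
      rw [← hc] at this
      have e : χ + ψ + -χ + -ψ = 0 := by ring
      rwa [e] at this
    apply hc1
    apply Units.ext
    have hker : (⨆ μ : K, Module.End.eigenspace T μ) ≤ LinearMap.ker ((c : Module.End K V) - 1) := by
      refine iSup_le fun μ w hw => ?_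
      rw [LinearMap.mem_ker]
      have hw' := Module.End.mem_eigenspace_iff.1 hw
      have hcw : T (((c : Module.End K V) - 1) w) = μ • (((c : Module.End K V) - 1) w) := by
        have := hcsh.apply hw'
        rw [sub_zero] at this
        rw [LinearMap.sub_apply, Module.End.one_apply, map_sub, this, hw', smul_sub]
      have e := congrArg (fun f : Module.End K V => f w) (h1 u hu)
      simp only [Module.End.mul_apply, LinearMap.zero_apply] at e
      generalize ((c : Module.End K V) - 1) w = w' at hcw e ⊢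
      have t1 := hua.apply hcw
      have t2 := hua.apply t1
      refine tri_three (x₁ := (-(2 : K)) • (u : Module.End K V) w')
        (x₂ := (u : Module.End K V) ((u : Module.End K V) w')) ha h2K hcw ?_ t2 ?_
      · rw [map_smul, t1, smul_comm]
      · simp only [LinearMap.sub_apply, Module.End.one_apply, map_sub] at e
        rw [← e, neg_smul, two_smul]
        abel
    apply LinearMap.ext
    intro w
    have hw : w ∈ LinearMap.ker ((c : Module.End K V) - 1) := hker (hU ▸ Submodule.mem_top)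
    rw [LinearMap.mem_ker, LinearMap.sub_apply, sub_eq_zero] at hw
    rw [hw]
    rfl

end Cfsg.Agent.Lib.Helper68.HHB
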