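import Cfsg.Agent.Lib.Helper12.HHB.Defs

set_option autoImplicit false

/-! Ladder HHB (Hall-Higman Theorem B), rung NC. -/

namespace Cfsg.Agent.Lib.Helper68.HHB

open Module Cfsg.Agent.Lib.Helper12.HHB

variable {K : Type*} [Field K] {V : Type*} [AddCommGroup V] [Module K V]

/-- a unit acting trivially on `W` and on `V ⧸ W` has `p`-th power 1 in characteristic `p`. -/
theorem nc_pow_eq_one {p : ℕ} [CharP K p] (W : Submodule K V) (c : stab W)
    (h1 : resHom W c = 1) (h2 : quotHom W c = 1) : (c : (Module.End K V)ˣ) ^ p = 1 := by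
  have hW : ∀ w ∈ W, ((c : (Module.End K V)ˣ) : Module.End K V) w = w := by
    intro w hw
    have := resHom_apply W c ⟨w, hw⟩
    rw [h1] at this
    simpa using this.symm
  have hV : ∀ v : V, ((c : (Module.End K V)ˣ) : Module.End K V) v - v ∈ W := by
    intro v
    have := quotHom_mk W c v
    rw [h2] at this
    rw [← Submodule.Quotient.eq]
    simpa using this.symm
  have hN : (((c : (Module.End K V)ˣ) : Module.End K V) - 1) * (((c : (Module.End K V)ˣ) : Module.End K V) - 1) = 0 := by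
    ext v
    have := hW _ (hV v)
    simp only [Module.End.mul_apply, LinearMap.sub_apply, Module.End.one_apply, LinearMap.zero_apply]
    rw [this, sub_self]
  have hpow : ∀ k : ℕ, ((c : (Module.End K V)ˣ) : Module.End K V) ^ k
      = 1 + k • (((c : (Module.End K V)ˣ) : Module.End K V) - 1) := by
    intro k
    generalize ((c : (Module.End K V)ˣ) : Module.End K V) = C at hN
    induction k with
    | zero => simp
    | succ k ih =>
      have e : C = 1 + (C - 1) := by abel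
      rw [pow_succ, ih]
      calc (1 + k • (C - 1)) * C = (1 + k • (C - 1)) * (1 + (C - 1)) := by rw [← e]
        _ = 1 + (C - 1) + k • (C - 1) + k • ((C - 1) * (C - 1)) := by
            rw [mul_add, mul_one, add_mul, one_mul, smul_mul_assoc]; abel
        _ = 1 + (k + 1) • (C - 1) := by rw [hN, smul_zero, add_zero, add_smul, one_smul]; abel
  apply Units.ext
  rw [Units.val_pow_eq_pow_val, hpow p, ← Nat.cast_smul_eq_nsmul K, CharP.cast_eq_zero K p, zero_smul,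
    add_zero, Units.val_one]

theorem nc_res_or_quot {p q : ℕ} [Fact p.Prime] [Fact q.Prime] [CharP K p] (hpq : p ≠ q)
    (Q : Subgroup (Module.End K V)ˣ) (hQ : IsPGroup q Q) (Y : (Module.End K V)ˣ)
    (hYQ : ∀ g ∈ Q, Y * g * Y⁻¹ ∈ Q) (hnc : ∃ g ∈ Q, Y * g ≠ g * Y)
    (W : Submodule K V) (hQW : Q ≤ stab W) (hYW : Y ∈ stab W) :
    (∃ g, ∃ hg : g ∈ Q, resHom W ⟨Y, hYW⟩ * resHom W ⟨g, hQW hg⟩ ≠ resHom W ⟨g, hQW hg⟩ * resHom W ⟨Y, hYW⟩) ∨
    (∃ g, ∃ hg : g ∈ Q, quotHom W ⟨Y, hYW⟩ * quotHom W ⟨g, hQW hg⟩ ≠ quotHom W ⟨g, hQW hg⟩ * quotHom W ⟨Y, hYW⟩) := by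
  by_contra hcon
  push Not at hcon
  obtain ⟨hr, hq⟩ := hcon
  obtain ⟨g, hg, hgY⟩ := hnc
  apply hgY
  have hc : Y * g * Y⁻¹ * g⁻¹ ∈ Q := Q.mul_mem (hYQ g hg) (Q.inv_mem hg)
  have he : (⟨Y * g * Y⁻¹ * g⁻¹, hQW hc⟩ : stab W)
      = ⟨Y, hYW⟩ * ⟨g, hQW hg⟩ * ⟨Y, hYW⟩⁻¹ * ⟨g, hQW hg⟩⁻¹ := Subtype.ext rfl
  have h1 : resHom W ⟨Y * g * Y⁻¹ * g⁻¹, hQW hc⟩ = 1 := by
    rw [he, map_mul, map_mul, map_mul, map_inv, map_inv, hr g hg]
    group
  have h2 : quotHom W ⟨Y * g * Y⁻¹ * g⁻¹, hQW hc⟩ = 1 := by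
    rw [he, map_mul, map_mul, map_mul, map_inv, map_inv, hq g hg]
    group
  have hcp : (Y * g * Y⁻¹ * g⁻¹) ^ p = 1 := nc_pow_eq_one W ⟨_, hQW hc⟩ h1 h2
  obtain ⟨n, hn⟩ := hQ ⟨_, hc⟩
  have hn' : (Y * g * Y⁻¹ * g⁻¹) ^ q ^ n = 1 := by simpa using congrArg Subtype.val hn
  have hcop : Nat.Coprime p (q ^ n) :=
    Nat.Coprime.pow_right n ((Nat.coprime_primes Fact.out Fact.out).2 hpq)
  have h3 : orderOf (Y * g * Y⁻¹ * g⁻¹) = 1 :=
    Nat.eq_one_of_dvd_coprimes hcop (orderOf_dvd_of_pow_eq_one hcp) (orderOf_dvd_of_pow_eq_one hn')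
  rw [orderOf_eq_one_iff] at h3
  calc Y * g = (Y * g * Y⁻¹ * g⁻¹) * (g * Y) := by group
    _ = g * Y := by rw [h3, one_mul]

end Cfsg.Agent.Lib.Helper68.HHB
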