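import Mathlib

set_option autoImplicit false

/-! Ladder HHB (Hall-Higman Theorem B), rung MIN. -/

namespace Cfsg.Agent.Lib.Helper68.HHB

open Subgroup

theorem min_structure {G : Type*} [Group G] {p q : ℕ} [Fact p.Prime] [Fact q.Prime] (hpq : p ≠ q)
    (Q : Subgroup G) [Finite Q] (hQ : IsPGroup q Q) (X Y : G) (hXY : X * Y = Y * X) (hYp : Y ^ p = 1)
    (hXQ : ∀ g ∈ Q, X * g * X⁻¹ ∈ Q) (hYQ : ∀ g ∈ Q, Y * g * Y⁻¹ ∈ Q)
    (hmin : ∀ Q' : Subgroup G, Q' ≤ Q → (∀ g ∈ Q', X * g * X⁻¹ ∈ Q') → Q' ≠ Q → ∀ g ∈ Q', Y * g = g * Y)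
    (hnc : ∃ g ∈ Q, Y * g ≠ g * Y) :
    (∀ g ∈ Q, Y * g = g * Y → ∀ h ∈ Q, g * h = h * g) ∧
    (∀ g ∈ Q, ∀ h ∈ Q, Y * (g * h * g⁻¹ * h⁻¹) = (g * h * g⁻¹ * h⁻¹) * Y) := by
  have hmapQ : Q.map (MulAut.conj X).toMonoidHom ≤ Q := by
    rintro _ ⟨g, hg, rfl⟩
    exact hXQ g hg
  have hmapY : (zpowers Y).map (MulAut.conj X).toMonoidHom ≤ zpowers Y := by
    rw [MonoidHom.map_zpowers, zpowers_le]
    have : (MulAut.conj X).toMonoidHom Y = Y := by
      simp only [MulEquiv.coe_toMonoidHom, MulAut.conj_apply]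
      rw [hXY]; group
    rw [this]
    exact mem_zpowers Y
  have hQQ : ⁅Q, Q⁆ ≤ Q := by
    rw [commutator_le]
    intro a ha b hb
    rw [commutatorElement_def]
    exact Q.mul_mem (Q.mul_mem (Q.mul_mem ha hb) (Q.inv_mem ha)) (Q.inv_mem hb)
  have hD : ∀ g ∈ ⁅Q, Q⁆, Y * g = g * Y := by
    apply hmin _ hQQ
    · intro g hg
      have : X * g * X⁻¹ ∈ (⁅Q, Q⁆).map (MulAut.conj X).toMonoidHom := ⟨g, hg, rfl⟩
      rw [map_commutator] at this
      exact commutator_mono hmapQ hmapQ this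
    · intro h
      obtain ⟨g, hg, hgY⟩ := hnc
      have : Nontrivial Q := ⟨⟨⟨g, hg⟩, 1, fun h1 => hgY (by
        have : g = 1 := congrArg Subtype.val h1
        rw [this]; simp)⟩⟩
      have : Group.IsNilpotent Q := hQ.isNilpotent
      have h1 := Group.IsSolvable.commutator_lt_top_of_nontrivial Q
      apply h1.ne
      apply Subgroup.map_injective Q.subtype_injective
      rw [map_subtype_commutator, h, ← MonoidHom.range_eq_map, range_subtype]
  have hYk : ∀ (k : ℕ), ∀ g ∈ Q, Y ^ k * g * (Y ^ k)⁻¹ ∈ Q := by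
    intro k
    induction k with
    | zero => intro g hg; simpa using hg
    | succ k ih =>
      intro g hg
      have := hYQ _ (ih g hg)
      have e : Y ^ (k + 1) * g * (Y ^ (k + 1))⁻¹ = Y * (Y ^ k * g * (Y ^ k)⁻¹) * Y⁻¹ := by
        rw [pow_succ']; group
      rw [e]; exact this
  have hYfin : IsOfFinOrder Y := isOfFinOrder_iff_pow_eq_one.2 ⟨p, (Fact.out : p.Prime).pos, hYp⟩
  have hYz : ∀ y ∈ zpowers Y, ∀ g ∈ Q, y * g * y⁻¹ ∈ Q := by
    intro y hy g hg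
    rw [← hYfin.mem_powers_iff_mem_zpowers, Submonoid.mem_powers_iff] at hy
    obtain ⟨k, rfl⟩ := hy
    exact hYk k g hg
  have hcent : ∀ g, Y * g = g * Y → g ∈ centralizer (zpowers Y : Set G) := by
    intro g h
    rw [mem_centralizer_iff]
    rintro _ ⟨k, rfl⟩
    exact (Commute.zpow_left (show Commute Y g from h) k).eq
  have hQ1Q : ⁅Q, zpowers Y⁆ ≤ Q := by
    rw [commutator_le]
    intro g hg y hy
    rw [commutatorElement_def]
    have := hYz y hy g⁻¹ (Q.inv_mem hg)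
    have e : g * y * g⁻¹ * y⁻¹ = g * (y * g⁻¹ * y⁻¹) := by group
    rw [e]
    exact Q.mul_mem hg this
  have hQ1 : ⁅Q, zpowers Y⁆ = Q := by
    by_contra hne
    have hc1 : ∀ g ∈ ⁅Q, zpowers Y⁆, Y * g = g * Y := by
      apply hmin _ hQ1Q _ hne
      intro g hg
      have : X * g * X⁻¹ ∈ (⁅Q, zpowers Y⁆).map (MulAut.conj X).toMonoidHom := ⟨g, hg, rfl⟩
      rw [map_commutator] at this
      exact commutator_mono hmapQ hmapY this
    obtain ⟨g, hg, hgY⟩ := hnc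
    apply hgY
    have hcQ1 : Y * g * Y⁻¹ * g⁻¹ ∈ ⁅Q, zpowers Y⁆ := by
      rw [commutator_comm, ← commutatorElement_def]
      exact commutator_mem_commutator (mem_zpowers Y) hg
    have hcY := hc1 _ hcQ1
    have hpow : ∀ k : ℕ, Y ^ k * g * (Y ^ k)⁻¹ = (Y * g * Y⁻¹ * g⁻¹) ^ k * g := by
      intro k
      induction k with
      | zero => simp
      | succ k ih =>
        have hck : Y * (Y * g * Y⁻¹ * g⁻¹) ^ k = (Y * g * Y⁻¹ * g⁻¹) ^ k * Y :=
          (Commute.pow_right (show Commute Y (Y * g * Y⁻¹ * g⁻¹) from hcY) k).eq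
        calc Y ^ (k + 1) * g * (Y ^ (k + 1))⁻¹ = Y * (Y ^ k * g * (Y ^ k)⁻¹) * Y⁻¹ := by
              rw [pow_succ']; group
          _ = Y * ((Y * g * Y⁻¹ * g⁻¹) ^ k * g) * Y⁻¹ := by rw [ih]
          _ = (Y * (Y * g * Y⁻¹ * g⁻¹) ^ k) * g * Y⁻¹ := by group
          _ = ((Y * g * Y⁻¹ * g⁻¹) ^ k * Y) * g * Y⁻¹ := by rw [hck]
          _ = (Y * g * Y⁻¹ * g⁻¹) ^ k * (Y * g * Y⁻¹ * g⁻¹) * g := by group
          _ = (Y * g * Y⁻¹ * g⁻¹) ^ (k + 1) * g := by rw [pow_succ]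
    have hcp : (Y * g * Y⁻¹ * g⁻¹) ^ p = 1 := by
      have := hpow p
      rw [hYp] at this
      simpa using this.symm
    obtain ⟨n, hn⟩ := hQ ⟨_, hQ1Q hcQ1⟩
    have hn' : (Y * g * Y⁻¹ * g⁻¹) ^ q ^ n = 1 := by simpa using congrArg Subtype.val hn
    have hcop : Nat.Coprime p (q ^ n) :=
      Nat.Coprime.pow_right n ((Nat.coprime_primes Fact.out Fact.out).2 hpq)
    have h1 : orderOf (Y * g * Y⁻¹ * g⁻¹) = 1 :=
      Nat.eq_one_of_dvd_coprimes hcop (orderOf_dvd_of_pow_eq_one hcp) (orderOf_dvd_of_pow_eq_one hn')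
    rw [orderOf_eq_one_iff] at h1
    calc Y * g = (Y * g * Y⁻¹ * g⁻¹) * (g * Y) := by group
      _ = g * Y := by rw [h1, one_mul]
  constructor
  · intro g hg hgY h hh
    have h1 : ⁅⁅zpowers Y, Q ⊓ centralizer (zpowers Y : Set G)⁆, Q⁆ = ⊥ := by
      have : ⁅zpowers Y, Q ⊓ centralizer (zpowers Y : Set G)⁆ = ⊥ := by
        rw [commutator_eq_bot_iff_le_centralizer, le_centralizer_iff]
        exact inf_le_right
      rw [this, commutator_bot_left]
    have h2 : ⁅⁅Q ⊓ centralizer (zpowers Y : Set G), Q⁆, zpowers Y⁆ = ⊥ := by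
      rw [commutator_eq_bot_iff_le_centralizer]
      intro x hx
      exact hcent x (hD x (commutator_mono inf_le_left le_rfl hx))
    have h3 := commutator_commutator_eq_bot_of_rotate h1 h2
    rw [hQ1, commutator_eq_bot_iff_le_centralizer] at h3
    exact (mem_centralizer_iff.1 (h3 hh)) g ⟨hg, hcent g hgY⟩
  · intro g hg h hh
    apply hD
    rw [← commutatorElement_def]
    exact commutator_mem_commutator hg hh

end Cfsg.Agent.Lib.Helper68.HHB
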