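import Cfsg.Agent.Lib.Helper12.HHB.QDefs

set_option autoImplicit false

/-! Ladder HH3 (S3789), rung DS. -/

namespace Cfsg.Agent.Lib.Helper68.HHB

open Cfsg.Agent.Lib.Helper12.HHB

theorem ds_eq_map {X : Type*} [Group X] (P : Subgroup X) (k : ℕ) :
    ds P k = (derivedSeries ↥P k).map P.subtype := by
  induction k with
  | zero =>
    rw [derivedSeries_zero, ← MonoidHom.range_eq_map, Subgroup.range_subtype]
    rfl
  | succ k ih =>
    rw [derivedSeries_succ, Subgroup.map_commutator, ← ih]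
    rfl

theorem ds_le {X : Type*} [Group X] (P : Subgroup X) (k : ℕ) : ds P k ≤ P := by
  rw [ds_eq_map]
  exact Subgroup.map_subtype_le _

theorem ds_conj_mem {X : Type*} [Group X] (P : Subgroup X) (k : ℕ) (g : X) (hg : g ∈ P) (b : X) (hb : b ∈ ds P k) :
    g * b * g⁻¹ ∈ ds P k := by
  rw [ds_eq_map] at hb ⊢
  obtain ⟨y, hy, rfl⟩ := hb
  have hn : (derivedSeries ↥P k).Normal := inferInstance
  exact ⟨⟨g, hg⟩ * y * ⟨g, hg⟩⁻¹, hn.conj_mem y hy ⟨g, hg⟩, rfl⟩

theorem ds_map {X Y : Type*} [Group X] [Group Y] (f : X →* Y) (P : Subgroup X) (k : ℕ) :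
    ds (P.map f) k = (ds P k).map f := by
  induction k with
  | zero => rfl
  | succ k ih =>
    show ⁅ds (P.map f) k, ds (P.map f) k⁆ = (⁅ds P k, ds P k⁆ : Subgroup X).map f
    rw [Subgroup.map_commutator, ih]

theorem ds_mono {X : Type*} [Group X] {P R : Subgroup X} (h : R ≤ P) (k : ℕ) : ds R k ≤ ds P k := by
  induction k with
  | zero => exact h
  | succ k ih => exact Subgroup.commutator_mono ih ih

end Cfsg.Agent.Lib.Helper68.HHB
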