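import Mathlib

set_option autoImplicit false

/-! Ladder HHB (Hall-Higman Theorem B), rung BC. -/

namespace Cfsg.Agent.Lib.Helper68.HHB

open Module

theorem base_change {F : Type*} [Field F] {V : Type*} [AddCommGroup V] [Module F V] (K : Type*) [Field K] [Algebra F K] :
    ∃ β : (Module.End F V)ˣ →* (Module.End K (TensorProduct F K V))ˣ, Function.Injective β ∧
      ∀ (u : (Module.End F V)ˣ) (k : ℕ),
        (((β u : (Module.End K (TensorProduct F K V))ˣ) : Module.End K (TensorProduct F K V)) - 1) ^ k = 0 ↔
          ((u : Module.End F V) - 1) ^ k = 0 := by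
  have hinj : Function.Injective (Module.End.baseChangeHom F K V) :=
    LinearMap.baseChangeHom_injective F V K
  refine ⟨Units.map (Module.End.baseChangeHom F K V : Module.End F V →* Module.End K (TensorProduct F K V)),
    ?_, ?_⟩
  · intro a b h
    apply Units.ext
    apply hinj
    exact congrArg Units.val h
  · intro u k
    have e : (((Units.map (Module.End.baseChangeHom F K V : Module.End F V →* Module.End K (TensorProduct F K V)) u :
        (Module.End K (TensorProduct F K V))ˣ) : Module.End K (TensorProduct F K V)) - 1) ^ k
        = Module.End.baseChangeHom F K V (((u : Module.End F V) - 1) ^ k) := by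
      rw [map_pow, map_sub, map_one]
      rfl
    rw [e, map_eq_zero_iff _ hinj]

end Cfsg.Agent.Lib.Helper68.HHB
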