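import Cfsg.Agent.Lib.Helper12.HHB.Main
import Cfsg.Agent.Lib.Helper68.HHBBC
import Cfsg.Agent.Lib.Helper68.HHBIDX

set_option autoImplicit false

/-! Ladder HHB2 (S3787), rung GFB: Hall-Higman Theorem B in group form. -/

namespace Cfsg.Agent.Lib.Helper68.HHB

open Module Cfsg.Agent.Lib.Helper12.HHB

universe u v

theorem gfb_end_geom {K : Type u} [Field K] {W : Type v} [AddCommGroup W] [Module K W]
    (p : ℕ) [Fact p.Prime] [CharP K p] (s : ℕ) (T : Module.End K W) :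
    ∑ j ∈ Finset.range (p ^ s), T ^ j = (T - 1) ^ (p ^ s - 1) := by
  have hpos : 0 < p ^ s := pow_pos (Fact.out : p.Prime).pos s
  have hX : (Polynomial.X - 1 : Polynomial K) ≠ 0 := Polynomial.X_sub_C_ne_zero (1 : K)
  have h0 : ∑ j ∈ Finset.range (p ^ s), (Polynomial.X : Polynomial K) ^ j
      = (Polynomial.X - 1) ^ (p ^ s - 1) := by
    apply mul_left_cancel₀ hX
    rw [mul_geom_sum, ← pow_succ', Nat.sub_add_cancel hpos, sub_pow_char_pow, one_pow]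
  have h := congrArg (Polynomial.aeval T) h0
  simpa using h

/-- Theorem B over an arbitrary field of characteristic `p`, non-exceptional case. -/
theorem gfb_linear {F : Type u} [Field F] {p q : ℕ} [Fact p.Prime] [Fact q.Prime] [CharP F p]
    (hpq : p ≠ q) {M : Type v} [AddCommGroup M] [Module F M] [Module.Finite F M]
    (Q : Subgroup (Module.End F M)ˣ) [Finite Q] (hQ : IsPGroup q Q) (X : (Module.End F M)ˣ)
    (hXQ : ∀ g ∈ Q, X * g * X⁻¹ ∈ Q) (n : ℕ) (hord : X ^ p ^ (n + 1) = 1)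
    (hnc : ∃ g ∈ Q, X ^ p ^ n * g ≠ g * X ^ p ^ n)
    (hexc : ¬ ∃ n₀ m : ℕ, 1 ≤ n₀ ∧ n₀ ≤ n + 1 ∧ 1 ≤ m ∧ p ^ n₀ - 1 = q ^ m ∧
      ¬ (∀ a ∈ Q, ∀ b ∈ Q, a * b = b * a)) :
    ((X : Module.End F M) - 1) ^ (p ^ (n + 1) - 1) ≠ 0 := by
  obtain ⟨β, hβ, hβk⟩ := base_change (F := F) (V := M) (AlgebraicClosure F)
  have : CharP (AlgebraicClosure F) p :=
    charP_of_injective_algebraMap (algebraMap F (AlgebraicClosure F)).injective p
  have hD : Data p q (Q.map β) (β X) n := by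
    refine ⟨?_, hQ.map β, ?_, ?_, ?_⟩
    · exact Finite.of_surjective (fun g : Q => (⟨β g, Subgroup.mem_map_of_mem β g.2⟩ : Q.map β))
        (by rintro ⟨_, g, hg, rfl⟩; exact ⟨⟨g, hg⟩, rfl⟩)
    · rintro _ ⟨g, hg, rfl⟩
      exact ⟨X * g * X⁻¹, hXQ g hg, by simp⟩
    · rw [← map_pow, hord, map_one]
    · obtain ⟨g, hg, hne⟩ := hnc
      refine ⟨β g, Subgroup.mem_map_of_mem β hg, ?_⟩
      intro h
      apply hne
      apply hβ
      rw [map_mul, map_mul, map_pow]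
      exact h
  obtain ⟨s, hs, hsle⟩ := exists_isIdx (p := p) (β X) (n + 1) hD.ord
  have hc := main hpq (Q.map β) (β X) n s hD hs
  have hs' : s = p ^ (n + 1) := by
    rcases hc with h | ⟨n₀, m, h1, h2, h3, h4, h5, -⟩
    · exact h
    · exfalso
      apply hexc
      refine ⟨n₀, m, h1, h2, h3, h4, ?_⟩
      intro hab
      apply h5
      rintro _ ⟨a, ha, rfl⟩ _ ⟨b, hb, rfl⟩
      rw [← map_mul, ← map_mul, hab a ha b hb]
  intro h0
  have hpos : 0 < p ^ (n + 1) := pow_pos (Fact.out : p.Prime).pos _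
  exact hs.2 (p ^ (n + 1) - 1) (by omega) ((hβk X _).2 h0)

/-- an action on a commutative group of exponent `p`, as a linear representation. -/
def gfbEnd {Y : Type u} [Group Y] (p : ℕ) (A : Type v) [CommGroup A] [Module (ZMod p) (Additive A)]
    (σ : Y →* MulAut A) : Y →* Module.End (ZMod p) (Additive A) where
  toFun g := AddMonoidHom.toZModLinearMap p (MonoidHom.toAdditive ((σ g : MulAut A).toMonoidHom))
  map_one' := by
    apply LinearMap.ext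
    intro v
    simp [Module.End.one_apply]
  map_mul' g h := by
    apply LinearMap.ext
    intro v
    simp [Module.End.mul_apply]

theorem gfbEnd_apply {Y : Type u} [Group Y] (p : ℕ) (A : Type v) [CommGroup A]
    [Module (ZMod p) (Additive A)] (σ : Y →* MulAut A) (g : Y) (v : A) :
    gfbEnd p A σ g (Additive.ofMul v) = Additive.ofMul (σ g v) := rfl

/-- Theorem B for an action on a finite commutative group of exponent `p`. -/
theorem gfb_mod {Y : Type u} [Group Y] [Finite Y] {p q : ℕ} [Fact p.Prime] [Fact q.Prime] (hpq : p ≠ q)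
    (A : Type v) [CommGroup A] [Finite A] [Module (ZMod p) (Additive A)] (σ : Y →* MulAut A)
    (Q : Subgroup Y) (hQ : IsPGroup q Q) (x : Y) (hxQ : ∀ a ∈ Q, x * a * x⁻¹ ∈ Q) (n : ℕ)
    (hx : σ (x ^ p ^ (n + 1)) = 1) (u : Y) (hu : u ∈ Q)
    (hne : σ (u * x ^ p ^ n * u⁻¹ * (x ^ p ^ n)⁻¹) ≠ 1)
    (hexc : ¬ ∃ n₀ m : ℕ, 1 ≤ n₀ ∧ n₀ ≤ n + 1 ∧ 1 ≤ m ∧ p ^ n₀ - 1 = q ^ m ∧ ¬ (∀ a ∈ Q, ∀ b ∈ Q, a * b = b * a)) :
    ∃ v : A, ∏ i ∈ Finset.range (p ^ (n + 1)), σ (x ^ i) v ≠ 1 := by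
  classical
  have hρ1 : ∀ g : Y, σ g = 1 → gfbEnd p A σ g = 1 := by
    intro g hg
    apply LinearMap.ext
    intro v
    obtain ⟨v, rfl⟩ := Additive.ofMul.surjective v
    rw [gfbEnd_apply, hg]
    rfl
  have hρ1' : ∀ g : Y, gfbEnd p A σ g = 1 → σ g = 1 := by
    intro g hg
    ext v
    have h1 := gfbEnd_apply p A σ g v
    rw [hg] at h1
    exact (Additive.ofMul.injective h1).symm
  have hcoe : ∀ g : Y, (((gfbEnd p A σ).toHomUnits g : (Module.End (ZMod p) (Additive A))ˣ) :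
      Module.End (ZMod p) (Additive A)) = gfbEnd p A σ g := fun g => rfl
  have hfin : Finite (Q.map (gfbEnd p A σ).toHomUnits) :=
    Finite.of_surjective (fun g : Q => (⟨(gfbEnd p A σ).toHomUnits g, Subgroup.mem_map_of_mem _ g.2⟩ :
      Q.map (gfbEnd p A σ).toHomUnits))
      (by rintro ⟨_, g, hg, rfl⟩; exact ⟨⟨g, hg⟩, rfl⟩)
  have hmain := gfb_linear (F := ZMod p) (p := p) (q := q) hpq (M := Additive A)
    (Q.map (gfbEnd p A σ).toHomUnits) (hQ.map _) ((gfbEnd p A σ).toHomUnits x) ?_ n ?_ ?_ ?_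
  · rw [← gfb_end_geom, hcoe] at hmain
    obtain ⟨w, hw⟩ : ∃ w, (∑ j ∈ Finset.range (p ^ (n + 1)), gfbEnd p A σ x ^ j) w ≠ 0 := by
      by_contra hcon
      push Not at hcon
      exact hmain (LinearMap.ext hcon)
    obtain ⟨v, rfl⟩ := Additive.ofMul.surjective w
    refine ⟨v, ?_⟩
    intro h1
    apply hw
    rw [LinearMap.sum_apply]
    have h2 : ∀ j ∈ Finset.range (p ^ (n + 1)), (gfbEnd p A σ x ^ j) (Additive.ofMul v)
        = Additive.ofMul (σ (x ^ j) v) := by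
      intro j _
      rw [← map_pow, gfbEnd_apply]
    rw [Finset.sum_congr rfl h2, ← ofMul_prod, h1]
    rfl
  · rintro _ ⟨g, hg, rfl⟩
    exact ⟨x * g * x⁻¹, hxQ g hg, by simp⟩
  · rw [← map_pow]
    apply Units.ext
    rw [hcoe, hρ1 _ hx]
    rfl
  · refine ⟨(gfbEnd p A σ).toHomUnits u, Subgroup.mem_map_of_mem _ hu, ?_⟩
    intro h
    apply hne
    apply hρ1'
    rw [← map_pow] at h
    have h2 : (gfbEnd p A σ).toHomUnits (u * x ^ p ^ n * u⁻¹ * (x ^ p ^ n)⁻¹) = 1 := by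
      rw [map_mul, map_mul, map_mul, map_inv, map_inv, ← h]
      group
    have h3 := congrArg Units.val h2
    rw [hcoe] at h3
    exact h3
  · rintro ⟨n₀, m, h1, h2, h3, h4, h5⟩
    apply hexc
    refine ⟨n₀, m, h1, h2, h3, h4, ?_⟩
    intro hab
    apply h5
    rintro _ ⟨a, ha, rfl⟩ _ ⟨b, hb, rfl⟩
    rw [← map_mul, ← map_mul, hab a ha b hb]

open scoped IsMulCommutative in
theorem gfb {Y : Type u} [Group Y] [Finite Y] {p q : ℕ} [Fact p.Prime] [Fact q.Prime] (hpq : p ≠ q) (V : Subgroup Y) [V.Normal]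
    (hVc : ∀ a ∈ V, ∀ b ∈ V, a * b = b * a) (hVe : ∀ a ∈ V, a ^ p = 1)
    (Q : Subgroup Y) (hQ : IsPGroup q Q) (x : Y) (hxQ : ∀ a ∈ Q, x * a * x⁻¹ ∈ Q) (n : ℕ)
    (hx : ∀ a ∈ V, x ^ p ^ (n + 1) * a = a * x ^ p ^ (n + 1))
    (u : Y) (hu : u ∈ Q) (a : Y) (ha : a ∈ V)
    (hne : (u * x ^ p ^ n * u⁻¹ * (x ^ p ^ n)⁻¹) * a ≠ a * (u * x ^ p ^ n * u⁻¹ * (x ^ p ^ n)⁻¹))
    (hexc : ¬ ∃ n₀ m : ℕ, 1 ≤ n₀ ∧ n₀ ≤ n + 1 ∧ 1 ≤ m ∧ p ^ n₀ - 1 = q ^ m ∧ ¬ (∀ a ∈ Q, ∀ b ∈ Q, a * b = b * a)) :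
    ∃ v ∈ V, (v * x) ^ p ^ (n + 1) ≠ x ^ p ^ (n + 1) := by
  classical
  haveI : IsMulCommutative V := ⟨⟨fun a b => Subtype.ext (hVc a a.2 b b.2)⟩⟩
  letI : Module (ZMod p) (Additive V) := AddCommGroup.zmodModule (n := p) (fun v => by
    show Additive.ofMul ((Additive.toMul v) ^ p) = 0
    have : (Additive.toMul v) ^ p = 1 := Subtype.ext (hVe _ (Additive.toMul v).2)
    rw [this]; rfl)
  have e1 : (MulAut.conjNormal : Y →* MulAut V) (x ^ p ^ (n + 1)) = 1 := by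
    ext v
    rw [MulAut.conjNormal_apply, hx v v.2]
    simp
  have e2 : (MulAut.conjNormal : Y →* MulAut V) (u * x ^ p ^ n * u⁻¹ * (x ^ p ^ n)⁻¹) ≠ 1 := by
    intro h
    apply hne
    have h1 := congrArg (fun f : MulAut V => ((f ⟨a, ha⟩ : V) : Y)) h
    simp only [MulAut.conjNormal_apply, MulAut.one_apply] at h1
    generalize u * x ^ p ^ n * u⁻¹ * (x ^ p ^ n)⁻¹ = c at h1 ⊢
    calc c * a = (c * a * c⁻¹) * c := by group
      _ = a * c := by rw [h1]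
  obtain ⟨v, hv⟩ := gfb_mod hpq V (MulAut.conjNormal : Y →* MulAut V) Q hQ x hxQ n e1 u hu e2 hexc
  refine ⟨v, v.2, ?_⟩
  have key : ∀ k : ℕ, ((v : Y) * x) ^ k
      = ((∏ i ∈ Finset.range k, MulAut.conjNormal (x ^ i) v : V) : Y) * x ^ k := by
    intro k
    induction k with
    | zero => simp
    | succ k ih =>
      rw [pow_succ, ih, Finset.prod_range_succ, Subgroup.coe_mul, MulAut.conjNormal_apply, pow_succ]
      group
  intro h
  apply hv
  rw [key] at h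
  apply Subtype.ext
  simpa using h

end Cfsg.Agent.Lib.Helper68.HHB
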