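import Cfsg.Agent.Lib.Helper12.HHB.QDefs
import Cfsg.Agent.Lib.Helper68.HHB2GFB

set_option autoImplicit false

/-! Ladder HH3 (S3789), rung GQ: lemma LQ in group form (with LQ as a hypothesis). -/

namespace Cfsg.Agent.Lib.Helper68.HHB

open Module Cfsg.Agent.Lib.Helper12.HHB

universe u v

/-- the statement of LQ, for fields in `Type` and spaces in `Type u`. -/
def LQSt (p q : ℕ) : Prop :=
  ∀ (K : Type) [Field K] [IsAlgClosed K] [CharP K p] (W : Type u) [AddCommGroup W] [Module K W]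
    [FiniteDimensional K W] (Q D : Subgroup (Module.End K W)ˣ) (b b' c : (Module.End K W)ˣ),
    DataQ p q Q D b b' c → False

theorem gq_sub_apply {Y : Type u} [Group Y] (p : ℕ) (A : Type v) [CommGroup A]
    [Module (ZMod p) (Additive A)] (σ : Y →* MulAut A) (g : Y) (v : A) :
    (gfbEnd p A σ g - 1) (Additive.ofMul v) = Additive.ofMul (σ g v * v⁻¹) := by
  rw [LinearMap.sub_apply, gfbEnd_apply, Module.End.one_apply, ← ofMul_div, div_eq_mul_inv]

/-- LQ for an action on a finite commutative group of exponent `p`. -/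
theorem gq_mod {Y : Type u} [Group Y] [Finite Y] {p q : ℕ} [Fact p.Prime] [Fact q.Prime]
    (hlq : LQSt.{u} p q)
    (A : Type u) [CommGroup A] [Finite A] [Module (ZMod p) (Additive A)] (σ : Y →* MulAut A)
    (Q : Subgroup Y) (hQ : IsPGroup q Q) (D : Subgroup Y) (hD : IsPGroup p D)
    (hDQ : ∀ d ∈ D, ∀ g ∈ Q, d * g * d⁻¹ ∈ Q)
    (b b' c : Y) (hb : b ∈ D) (hb' : b' ∈ D) (hc : c = b * b' * b⁻¹ * b'⁻¹)
    (hcen : ∀ d ∈ D, σ (c * d) = σ (d * c))
    (u : Y) (hu : u ∈ Q) (hne : σ (u * c * u⁻¹ * c⁻¹) ≠ 1)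
    (h1 : ∀ d ∈ D, ∀ v : A, σ c (σ d (σ d v * v⁻¹) * (σ d v * v⁻¹)⁻¹)
        = σ d (σ d v * v⁻¹) * (σ d v * v⁻¹)⁻¹)
    (h2 : ∀ v : A, σ c (σ c v * v⁻¹) = σ c v * v⁻¹) : False := by
  classical
  have hρ1' : ∀ g : Y, gfbEnd p A σ g = 1 → σ g = 1 := by
    intro g hg
    ext v
    have h1 := gfbEnd_apply p A σ g v
    rw [hg] at h1
    exact (Additive.ofMul.injective h1).symm
  have hρeq : ∀ g h : Y, σ g = σ h → gfbEnd p A σ g = gfbEnd p A σ h := by
    intro g h hgh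
    apply LinearMap.ext
    intro v
    obtain ⟨v, rfl⟩ := Additive.ofMul.surjective v
    rw [gfbEnd_apply, gfbEnd_apply, hgh]
  have : CharP (AlgebraicClosure (ZMod p)) p :=
    charP_of_injective_algebraMap (algebraMap (ZMod p) (AlgebraicClosure (ZMod p))).injective p
  have hinj : Function.Injective
      (Module.End.baseChangeHom (ZMod p) (AlgebraicClosure (ZMod p)) (Additive A)) :=
    LinearMap.baseChangeHom_injective (ZMod p) (Additive A) (AlgebraicClosure (ZMod p))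
  -- the composite representation, as a monoid hom into `End`
  let Φ : Module.End (ZMod p) (Additive A) →*
      Module.End (AlgebraicClosure (ZMod p)) (TensorProduct (ZMod p) (AlgebraicClosure (ZMod p)) (Additive A)) :=
    (Module.End.baseChangeHom (ZMod p) (AlgebraicClosure (ZMod p)) (Additive A) :
      Module.End (ZMod p) (Additive A) →* _)
  let τ : Y →* (Module.End (AlgebraicClosure (ZMod p))
      (TensorProduct (ZMod p) (AlgebraicClosure (ZMod p)) (Additive A)))ˣ :=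
    (Φ.comp (gfbEnd p A σ)).toHomUnits
  have hτ : ∀ g : Y, ((τ g : (Module.End (AlgebraicClosure (ZMod p))
      (TensorProduct (ZMod p) (AlgebraicClosure (ZMod p)) (Additive A)))ˣ) : Module.End _ _)
      = Module.End.baseChangeHom (ZMod p) (AlgebraicClosure (ZMod p)) (Additive A) (gfbEnd p A σ g) :=
    fun g => rfl
  have hτeq : ∀ g h : Y, σ g = σ h → τ g = τ h := by
    intro g h hgh
    apply Units.ext
    rw [hτ, hτ, hρeq g h hgh]
  have hτ1 : ∀ g : Y, τ g = 1 → σ g = 1 := by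
    intro g hg
    apply hρ1'
    apply hinj
    rw [← hτ, hg, map_one]
    rfl
  have hcomm : ∀ d ∈ D, gfbEnd p A σ c * gfbEnd p A σ d = gfbEnd p A σ d * gfbEnd p A σ c := by
    intro d hd
    rw [← map_mul, ← map_mul]
    exact hρeq _ _ (hcen d hd)
  refine hlq (AlgebraicClosure (ZMod p))
    (TensorProduct (ZMod p) (AlgebraicClosure (ZMod p)) (Additive A)) (Q.map τ) (D.map τ) (τ b) (τ b') (τ c)
    ⟨?_, hQ.map τ, ?_, hD.map τ, ?_, Subgroup.mem_map_of_mem τ hb, Subgroup.mem_map_of_mem τ hb', ?_, ?_, ?_,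
      ?_, ?_⟩
  · exact Finite.of_surjective (fun g : Q => (⟨τ g, Subgroup.mem_map_of_mem τ g.2⟩ : Q.map τ))
      (by rintro ⟨_, g, hg, rfl⟩; exact ⟨⟨g, hg⟩, rfl⟩)
  · exact Finite.of_surjective (fun g : D => (⟨τ g, Subgroup.mem_map_of_mem τ g.2⟩ : D.map τ))
      (by rintro ⟨_, g, hg, rfl⟩; exact ⟨⟨g, hg⟩, rfl⟩)
  · rintro _ ⟨d, hd, rfl⟩ _ ⟨g, hg, rfl⟩
    exact ⟨d * g * d⁻¹, hDQ d hd g hg, by simp⟩
  · rw [hc]; simp
  · rintro _ ⟨d, hd, rfl⟩
    rw [← map_mul, ← map_mul]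
    exact hτeq _ _ (hcen d hd)
  · refine ⟨τ u, Subgroup.mem_map_of_mem τ hu, ?_⟩
    intro h
    apply hne
    apply hτ1
    rw [map_mul, map_mul, map_mul, map_inv, map_inv, ← h]
    group
  · rintro _ ⟨d, hd, rfl⟩
    have e : (gfbEnd p A σ d - 1) * (gfbEnd p A σ d - 1) * (gfbEnd p A σ c - 1) = 0 := by
      have hcd : (gfbEnd p A σ c - 1) * (gfbEnd p A σ d - 1)
          = (gfbEnd p A σ d - 1) * (gfbEnd p A σ c - 1) := by
        have := hcomm d hd
        simp only [sub_mul, mul_sub, mul_one, one_mul, this]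
        abel
      have e0 : (gfbEnd p A σ c - 1) * ((gfbEnd p A σ d - 1) * (gfbEnd p A σ d - 1)) = 0 := by
        apply LinearMap.ext
        intro w
        obtain ⟨v, rfl⟩ := Additive.ofMul.surjective w
        rw [Module.End.mul_apply, Module.End.mul_apply, gq_sub_apply, gq_sub_apply, gq_sub_apply,
          h1 d hd v, mul_inv_cancel]
        rfl
      calc (gfbEnd p A σ d - 1) * (gfbEnd p A σ d - 1) * (gfbEnd p A σ c - 1)
          = (gfbEnd p A σ d - 1) * ((gfbEnd p A σ d - 1) * (gfbEnd p A σ c - 1)) := mul_assoc _ _ _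
        _ = (gfbEnd p A σ d - 1) * ((gfbEnd p A σ c - 1) * (gfbEnd p A σ d - 1)) := by rw [hcd]
        _ = ((gfbEnd p A σ d - 1) * (gfbEnd p A σ c - 1)) * (gfbEnd p A σ d - 1) := (mul_assoc _ _ _).symm
        _ = ((gfbEnd p A σ c - 1) * (gfbEnd p A σ d - 1)) * (gfbEnd p A σ d - 1) := by rw [hcd]
        _ = (gfbEnd p A σ c - 1) * ((gfbEnd p A σ d - 1) * (gfbEnd p A σ d - 1)) := mul_assoc _ _ _
        _ = 0 := e0
    rw [hτ, hτ]
    have e' := congrArg (Module.End.baseChangeHom (ZMod p) (AlgebraicClosure (ZMod p)) (Additive A)) e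
    rw [map_mul, map_mul, map_sub, map_sub, map_one, map_zero] at e'
    exact e'
  · have e : (gfbEnd p A σ c - 1) * (gfbEnd p A σ c - 1) = 0 := by
      apply LinearMap.ext
      intro w
      obtain ⟨v, rfl⟩ := Additive.ofMul.surjective w
      rw [Module.End.mul_apply, gq_sub_apply, gq_sub_apply, h2 v, mul_inv_cancel]
      rfl
    rw [hτ]
    have e' := congrArg (Module.End.baseChangeHom (ZMod p) (AlgebraicClosure (ZMod p)) (Additive A)) e
    rw [map_mul, map_sub, map_one, map_zero] at e'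
    exact e'

open scoped IsMulCommutative in
theorem gq_of {Y : Type u} [Group Y] [Finite Y] {p q : ℕ} [Fact p.Prime] [Fact q.Prime]
    (hlq : LQSt.{u} p q)
    (V : Subgroup Y) [V.Normal] (hVc : ∀ a ∈ V, ∀ b ∈ V, a * b = b * a) (hVe : ∀ a ∈ V, a ^ p = 1)
    (Q : Subgroup Y) (hQ : IsPGroup q Q) (D : Subgroup Y) (hD : IsPGroup p D) (hDQ : ∀ d ∈ D, ∀ g ∈ Q, d * g * d⁻¹ ∈ Q)
    (b b' c : Y) (hb : b ∈ D) (hb' : b' ∈ D) (hc : c = b * b' * b⁻¹ * b'⁻¹)
    (hcen : ∀ d ∈ D, ∀ v ∈ V, (c * d) * v * (c * d)⁻¹ = (d * c) * v * (d * c)⁻¹)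
    (u : Y) (hu : u ∈ Q) (a : Y) (ha : a ∈ V) (hne : (u * c * u⁻¹ * c⁻¹) * a ≠ a * (u * c * u⁻¹ * c⁻¹))
    (h1 : ∀ d ∈ D, ∀ v ∈ V, c * (d * (d * v * d⁻¹ * v⁻¹) * d⁻¹ * (d * v * d⁻¹ * v⁻¹)⁻¹) * c⁻¹
        = d * (d * v * d⁻¹ * v⁻¹) * d⁻¹ * (d * v * d⁻¹ * v⁻¹)⁻¹)
    (h2 : ∀ v ∈ V, c * (c * v * c⁻¹ * v⁻¹) * c⁻¹ = c * v * c⁻¹ * v⁻¹) : False := by
  classical
  haveI : IsMulCommutative V := ⟨⟨fun a b => Subtype.ext (hVc a a.2 b b.2)⟩⟩
  letI : Module (ZMod p) (Additive V) := AddCommGroup.zmodModule (n := p) (fun v => by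
    show Additive.ofMul ((Additive.toMul v) ^ p) = 0
    have : (Additive.toMul v) ^ p = 1 := Subtype.ext (hVe _ (Additive.toMul v).2)
    rw [this]; rfl)
  refine gq_mod hlq V (MulAut.conjNormal : Y →* MulAut V) Q hQ D hD hDQ b b' c hb hb' hc ?_ u hu ?_ ?_ ?_
  · intro d hd
    ext v
    rw [MulAut.conjNormal_apply, MulAut.conjNormal_apply]
    exact hcen d hd v v.2
  · intro h
    apply hne
    have h1 := congrArg (fun f : MulAut V => ((f ⟨a, ha⟩ : V) : Y)) h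
    simp only [MulAut.conjNormal_apply, MulAut.one_apply] at h1
    generalize u * c * u⁻¹ * c⁻¹ = e at h1 ⊢
    calc e * a = (e * a * e⁻¹) * e := by group
      _ = a * e := by rw [h1]
  · intro d hd v
    apply Subtype.ext
    simp only [MulAut.conjNormal_apply, Subgroup.coe_mul, Subgroup.coe_inv]
    exact h1 d hd v v.2
  · intro v
    apply Subtype.ext
    simp only [MulAut.conjNormal_apply, Subgroup.coe_mul, Subgroup.coe_inv]
    exact h2 v v.2

end Cfsg.Agent.Lib.Helper68.HHB
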