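import Mathlib

set_option autoImplicit false

/-! Ladder HH3 (S3789), rung Z2. -/

namespace Cfsg.Agent.Lib.Helper68.HHB

theorem exists_central_commutator {G : Type*} [Group G] [Finite G] {p : ℕ} [Fact p.Prime] (hG : IsPGroup p G)
    (hna : ∃ x y : G, x * y ≠ y * x) :
    ∃ b b' : G, b * b' * b⁻¹ * b'⁻¹ ≠ 1 ∧ ∀ d : G, (b * b' * b⁻¹ * b'⁻¹) * d = d * (b * b' * b⁻¹ * b'⁻¹) := by
  obtain ⟨x, y, hxy⟩ := hna
  have hnt : Nontrivial (G ⧸ Subgroup.center G) := by
    refine ⟨⟨(x : G ⧸ Subgroup.center G), 1, ?_⟩⟩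
    intro h
    rw [QuotientGroup.eq_one_iff, Subgroup.mem_center_iff] at h
    exact hxy (h y).symm
  have hQ : IsPGroup p (G ⧸ Subgroup.center G) := hG.to_quotient _
  have hc := hQ.center_nontrivial
  obtain ⟨⟨z, hz⟩, hz1⟩ := exists_ne (1 : Subgroup.center (G ⧸ Subgroup.center G))
  obtain ⟨b', rfl⟩ := QuotientGroup.mk_surjective z
  have hb' : b' ∉ Subgroup.center G := by
    intro h
    apply hz1
    apply Subtype.ext
    exact (QuotientGroup.eq_one_iff b').2 h
  obtain ⟨b, hb⟩ : ∃ b : G, b * b' ≠ b' * b := by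
    by_contra hcon
    push Not at hcon
    exact hb' (Subgroup.mem_center_iff.2 hcon)
  refine ⟨b, b', ?_, ?_⟩
  · intro h
    apply hb
    calc b * b' = (b * b' * b⁻¹ * b'⁻¹) * (b' * b) := by group
      _ = b' * b := by rw [h, one_mul]
  · have hmem : b * b' * b⁻¹ * b'⁻¹ ∈ Subgroup.center G := by
      rw [← QuotientGroup.eq_one_iff]
      have h1 := Subgroup.mem_center_iff.1 hz (b : G ⧸ Subgroup.center G)
      rw [QuotientGroup.mk_mul, QuotientGroup.mk_mul, QuotientGroup.mk_mul, QuotientGroup.mk_inv,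
        QuotientGroup.mk_inv, h1]
      group
    intro d
    exact (Subgroup.mem_center_iff.1 hmem d).symm

end Cfsg.Agent.Lib.Helper68.HHB
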