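import Cfsg.Agent.Lib.Helper12.HHB.WrDefs
import Cfsg.Agent.Lib.Helper86.SecFree
import Cfsg.Agent.Lib.Helper14.SectionNormalizer
import Cfsg.Prelude.Def_LocalEven

set_option autoImplicit false

/-! Ladder HHB2 (S3787), rung INV. -/

namespace Cfsg.Agent.Lib.Helper68.HHB

open Cfsg.Agent.Lib.Helper12.HHB

universe u v w

/-- `IsWr` is invariant under isomorphism. -/
theorem isWr_of_equiv {p : ℕ} {W : Type v} [Group W] {W' : Type w} [Group W'] (e : W ≃* W')
    (h : IsWr p W) : IsWr p W' := by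
  obtain ⟨B, t, hBn, hBc, hBe, hBcard, ht, htB, hW, hC⟩ := h
  refine ⟨B.map e.toMonoidHom, e t, hBn.map _ e.surjective, ?_, ?_, ?_, ?_, ?_, ?_, ?_⟩
  · refine ⟨⟨?_⟩⟩
    rintro ⟨_, a, ha, rfl⟩ ⟨_, b, hb, rfl⟩
    apply Subtype.ext
    have := congrArg Subtype.val (hBc.is_comm.comm (⟨a, ha⟩ : B) ⟨b, hb⟩)
    simp only [Subgroup.coe_mul] at this ⊢
    rw [← map_mul, this, map_mul]
  · rintro _ ⟨b, hb, rfl⟩
    rw [← map_pow, hBe b hb, map_one]
  · rw [Subgroup.card_map_of_injective e.injective, hBcard]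
  · rw [← ht]; exact e.orderOf_eq t
  · rintro ⟨b, hb, hbt⟩
    exact htB (e.injective hbt ▸ hb)
  · rw [← Nat.card_congr e.toEquiv, hW]
  · have : B.map e.toMonoidHom ⊓ Subgroup.centralizer ({e t} : Set W')
        = (B ⊓ Subgroup.centralizer ({t} : Set W)).map e.toMonoidHom := by
      ext y
      simp only [Subgroup.mem_inf, Subgroup.mem_map, Subgroup.mem_centralizer_singleton_iff]
      constructor
      · rintro ⟨⟨b, hb, rfl⟩, h2⟩
        refine ⟨b, ⟨hb, e.injective ?_⟩, rfl⟩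
        rw [map_mul, map_mul]
        exact h2
      · rintro ⟨b, ⟨hb, h2⟩, rfl⟩
        refine ⟨⟨b, hb, rfl⟩, ?_⟩
        have := congrArg e h2
        rw [map_mul, map_mul] at this
        exact this
    rw [this, Subgroup.card_map_of_injective e.injective, hC]

/-- a finite group has a copy in `Type`. -/
theorem exists_small_equiv (W : Type w) [Group W] [Finite W] :
    ∃ (W₀ : Type) (_ : Group W₀) (_ : Finite W₀), Nonempty (W ≃* W₀) := by
  let E : {k : ℕ // k < Nat.card W} ≃ W := (Fin.equivSubtype.symm).trans (Finite.equivFin W).symm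
  refine ⟨{k : ℕ // k < Nat.card W}, E.group, Finite.of_equiv _ E.symm, ⟨?_⟩⟩
  letI : Group {k : ℕ // k < Nat.card W} := E.group
  exact (E.mulEquiv).symm

theorem involves_of_section {G : Type u} [Group G] [Finite G] {p : ℕ} [Fact p.Prime] (P : Sylow p G)
    {Y : Type v} [Group Y] (f : G →* Y) (hf : Function.Surjective f) (K : Subgroup Y) (hK : IsPGroup p K)
    {W : Type w} [Group W] (π : K →* W) (hπ : Function.Surjective π) (hW : IsWr p W) :
    ∃ (W₀ : Type) (_ : Group W₀) (_ : Finite W₀), IsWr p W₀ ∧ Cfsg.Involves W₀ ↥(P : Subgroup G) := by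
  have hfin : Finite W := by
    obtain ⟨_, _, _, _, _, _, _, _, hc, _⟩ := hW
    apply Nat.finite_of_card_ne_zero
    rw [hc]
    exact pow_ne_zero _ (Fact.out : p.Prime).ne_zero
  obtain ⟨K', hK'p, hK'map, -⟩ := Cfsg.Agent.Lib.Helper14.exists_isPGroup_map_eq_normalizer f hf K hK
  obtain ⟨P', hP'⟩ := hK'p.exists_le_sylow
  obtain ⟨g, hg⟩ := MulAction.exists_smul_eq G P' P
  have hconj : ∀ k ∈ K', g * k * g⁻¹ ∈ (P : Subgroup G) := by
    intro k hk
    rw [← hg, Sylow.coe_subgroup_smul, Subgroup.mem_pointwise_smul_iff_inv_smul_mem]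
    have : (MulAut.conj g)⁻¹ • (g * k * g⁻¹) = k := by
      simp [MulAut.smul_def, mul_assoc]
    rw [this]
    exact hP' hk
  -- the embedding of `K'` into `P`
  let i : K' →* ↥(P : Subgroup G) :=
    { toFun := fun k => ⟨g * k * g⁻¹, hconj k k.2⟩
      map_one' := by apply Subtype.ext; simp
      map_mul' := fun a b => by apply Subtype.ext; simp [mul_assoc] }
  have hi : Function.Injective i := by
    intro a b hab
    have h1 : g * (a : G) * g⁻¹ = g * (b : G) * g⁻¹ := congrArg Subtype.val hab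
    apply Subtype.ext
    simpa using h1
  -- the surjection of `K'` onto `K`
  have hfK : ∀ k : K', f k ∈ K := fun k => hK'map ▸ Subgroup.mem_map_of_mem f k.2
  let φ : K' →* K :=
    { toFun := fun k => ⟨f k, hfK k⟩
      map_one' := by apply Subtype.ext; simp
      map_mul' := fun a b => by apply Subtype.ext; simp }
  have hφ : Function.Surjective φ := by
    rintro ⟨y, hy⟩
    rw [← hK'map] at hy
    obtain ⟨k, hk, rfl⟩ := hy
    exact ⟨⟨k, hk⟩, rfl⟩
  obtain ⟨W₀, hg₀, hf₀, ⟨e⟩⟩ := exists_small_equiv W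
  refine ⟨W₀, hg₀, hf₀, isWr_of_equiv e hW, ?_⟩
  exact Cfsg.Agent.Lib.Helper86.SecFree.involves_of_span i hi
    (e.toMonoidHom.comp (π.comp φ)) (e.surjective.comp (hπ.comp hφ))

end Cfsg.Agent.Lib.Helper68.HHB
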