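import Cfsg.Agent.S3783

set_option autoImplicit false

/-! Ladder HHB (Hall-Higman Theorem B), rung GRP. -/

namespace Cfsg.Agent.Lib.Helper68.HHB

theorem exists_q_subgroup {H : Type*} [Group H] [Finite H] {p : ℕ} [hp : Fact p.Prime] (hsol : Cfsg.IsPSolvable p H)
    (hOp : Cfsg.pCore p H = ⊥) (x : H) (n : ℕ) (hx : orderOf x = p ^ (n + 1)) :
    ∃ (q : ℕ) (_ : Fact q.Prime) (Q : Subgroup H), p ≠ q ∧ IsPGroup q Q ∧ (∀ g ∈ Q, x * g * x⁻¹ ∈ Q) ∧
      ∃ g ∈ Q, x ^ p ^ n * g ≠ g * x ^ p ^ n := by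
  have hMcent := Cfsg.Agent.Lib.Helper55.centralizer_pPrimeCore_le hsol hOp
  obtain ⟨M, hM⟩ : ∃ M, M = Cfsg.pPrimeCore p H := ⟨_, rfl⟩
  rw [← hM] at hMcent
  have hMn : M.Normal := hM ▸ Cfsg.Agent.Lib.Helper1.pPrimeCore_normal p H
  have hMc : (Nat.card M).Coprime p := hM ▸ Cfsg.Agent.Lib.Helper1.pPrimeCore_coprime p H
  obtain ⟨y, hy⟩ : ∃ y, y = x ^ p ^ n := ⟨_, rfl⟩
  rw [← hy]
  have hx1 : x ^ p ^ (n + 1) = 1 := by rw [← hx, pow_orderOf_eq_one]
  have hyp1 : y ^ p = 1 := by rw [hy, ← pow_mul, ← pow_succ, hx1]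
  have hy1 : y ≠ 1 := by
    intro h
    rw [hy] at h
    have := orderOf_dvd_of_pow_eq_one h
    rw [hx] at this
    have h2 := (Nat.pow_dvd_pow_iff_le_right hp.out.one_lt).1 this
    omega
  have hyM : y ∉ Subgroup.centralizer (M : Set H) := by
    intro hyc
    have h2 := hMcent hyc
    have d1 : orderOf y ∣ Nat.card M := Subgroup.orderOf_dvd_natCard M h2
    have d2 : orderOf y ∣ p := orderOf_dvd_of_pow_eq_one hyp1
    have h3 := Nat.eq_one_of_dvd_coprimes hMc d1 d2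
    rw [orderOf_eq_one_iff] at h3
    exact hy1 h3
  have hzp : IsPGroup p (Subgroup.zpowers x) := by
    rintro ⟨g, hg⟩
    obtain ⟨k, rfl⟩ := Subgroup.mem_zpowers_iff.1 hg
    refine ⟨n + 1, Subtype.ext ?_⟩
    show (x ^ k) ^ p ^ (n + 1) = 1
    rw [← zpow_natCast, ← zpow_mul, mul_comm, zpow_mul, zpow_natCast, hx1, one_zpow]
  have hzN : Subgroup.zpowers x ≤ Subgroup.normalizer (M : Set H) := by
    rw [Subgroup.normalizer_eq_top]; exact le_top
  have hMp : ¬ p ∣ Nat.card M := (Nat.Prime.coprime_iff_not_dvd hp.out).1 hMc.symm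
  obtain ⟨q, hq, R, hRN, hRy⟩ : ∃ (q : ℕ) (_ : Fact q.Prime) (R : Sylow q M),
      Subgroup.zpowers x ≤ Subgroup.normalizer (((R : Subgroup M).map M.subtype : Subgroup H) : Set H) ∧
      ¬ ((R : Subgroup M).map M.subtype ≤ Subgroup.centralizer ({y} : Set H)) := by
    by_contra hcon
    push Not at hcon
    apply hyM
    have hC : M ⊓ Subgroup.centralizer ({y} : Set H) = M := by
      apply Subgroup.eq_of_le_of_card_ge inf_le_left
      apply Nat.le_of_dvd Nat.card_pos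
      rw [← Nat.factorization_prime_le_iff_dvd Nat.card_pos.ne' Nat.card_pos.ne']
      intro q hq
      haveI : Fact q.Prime := ⟨hq⟩
      obtain ⟨R, hR⟩ := Cfsg.Agent.Lib.Helper75.exists_invariant_sylow (q := q)
        (Subgroup.zpowers x) M hzp hzN hMp
      have h1 := hcon q ⟨hq⟩ R hR
      have h2 : (R : Subgroup M).map M.subtype ≤ M ⊓ Subgroup.centralizer ({y} : Set H) :=
        le_inf (Subgroup.map_subtype_le _) h1
      have h3 := Subgroup.card_dvd_of_le h2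
      rw [Subgroup.card_map_of_injective M.subtype_injective, Sylow.card_eq_multiplicity] at h3
      exact (Nat.Prime.pow_dvd_iff_le_factorization hq Nat.card_pos.ne').1 h3
    rw [Subgroup.mem_centralizer_iff]
    intro b hb
    have h4 : b ∈ M ⊓ Subgroup.centralizer ({y} : Set H) := hC.symm ▸ hb
    exact (Subgroup.mem_centralizer_singleton_iff.1 (Subgroup.mem_inf.1 h4).2)
  obtain ⟨Q, hQ⟩ : ∃ Q, Q = (R : Subgroup M).map M.subtype := ⟨_, rfl⟩
  rw [← hQ] at hRN hRy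
  have hQq : IsPGroup q Q := hQ ▸ R.2.map M.subtype
  have hQM : Q ≤ M := hQ ▸ Subgroup.map_subtype_le _
  have hQc : (Nat.card Q).Coprime p := Nat.Coprime.coprime_dvd_left (Subgroup.card_dvd_of_le hQM) hMc
  obtain ⟨g, hgQ, hgy⟩ := SetLike.not_le_iff_exists.1 hRy
  refine ⟨q, hq, Q, ?_, hQq, ?_, g, hgQ, ?_⟩
  · rintro rfl
    obtain ⟨k, hk⟩ := IsPGroup.iff_card.1 hQq
    apply hgy
    have h1 : Nat.card Q = 1 := by
      rcases k with _ | k
      · simpa using hk
      · exfalso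
        rw [hk] at hQc
        have := Nat.Coprime.coprime_dvd_left (dvd_pow_self p (Nat.succ_ne_zero k)) hQc
        rw [Nat.coprime_self] at this
        exact hp.out.one_lt.ne' this
    have h2 : Q = ⊥ := Subgroup.card_eq_one.1 h1
    rw [h2, Subgroup.mem_bot] at hgQ
    rw [hgQ]
    exact Subgroup.one_mem _
  · intro g hg
    exact (Subgroup.mem_normalizer_iff.1 (hRN (Subgroup.mem_zpowers x)) g).1 hg
  · intro h
    apply hgy
    rw [Subgroup.mem_centralizer_singleton_iff]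
    exact h.symm

end Cfsg.Agent.Lib.Helper68.HHB
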